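import Mathlib
import Cfsg.Prelude.Def_Characters
import Cfsg.Agent.Lib.Helper75.CharInd
import Cfsg.Agent.Lib.Helper15.LinChar
import Cfsg.Agent.Lib.Helper25.Annih
import Cfsg.Agent.Lib.Helper14.DG33.Defs

/-!
# DG33 [PSICHAR]: `psi8` is a character of the Borel subgroup

Direct evaluation of the character induced from a non-trivial linear character `μ` of `P`
trivial on `Z`.
-/

set_option autoImplicit false

namespace Cfsg.Agent.Lib.Helper4.DG33

universe u

/-- A non-trivial linear character of `N`, trivial on `Z`, when `N / Z` is abelian. -/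
theorem exists_mu {H : Type u} [Group H] [Finite H] (N Z : Subgroup H)
    (hZnorm : ∀ x : H, ∀ z ∈ Z, x⁻¹ * z * x ∈ Z)
    (hcomm : ∀ p ∈ N, ∀ q ∈ N, p * q * p⁻¹ * q⁻¹ ∈ Z)
    (hne : ∃ p ∈ N, p ∉ Z) :
    ∃ μ : N →* ℂˣ, (∀ q : N, (q : H) ∈ Z → μ q = 1) ∧ ∃ p : N, μ p ≠ 1 := by
  have hnorm : (Z.subgroupOf N).Normal := by
    constructor
    intro n hn g
    rw [Subgroup.mem_subgroupOf] at hn ⊢
    have := hZnorm (g : H)⁻¹ _ hn
    simpa using this
  obtain ⟨p, hpN, hpZ⟩ := hne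
  have ha : (QuotientGroup.mk ⟨p, hpN⟩ : N ⧸ Z.subgroupOf N) ≠ 1 := by
    intro h
    rw [QuotientGroup.eq_one_iff] at h
    exact hpZ (Subgroup.mem_subgroupOf.mp h)
  obtain ⟨φ, hφ⟩ := Cfsg.Agent.Lib.Helper25.exists_linChar_ne_one (Q := N ⧸ Z.subgroupOf N) (by
    intro a b
    induction a using QuotientGroup.induction_on with
    | H a =>
    induction b using QuotientGroup.induction_on with
    | H b =>
    rw [← QuotientGroup.mk_mul, ← QuotientGroup.mk_mul, QuotientGroup.eq]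
    rw [Subgroup.mem_subgroupOf]
    have := hcomm (b : H)⁻¹ (N.inv_mem b.2) (a : H)⁻¹ (N.inv_mem a.2)
    simpa [mul_assoc] using this) ha
  refine ⟨φ.comp (QuotientGroup.mk' (Z.subgroupOf N)), ?_, ⟨p, hpN⟩, hφ⟩
  intro q hq
  show φ (QuotientGroup.mk q) = 1
  rw [(QuotientGroup.eq_one_iff q).mpr (Subgroup.mem_subgroupOf.mpr hq), map_one]

open Classical in
/-- The abstract form: `N ⊴ H`, `Z ≤ N` normalised by `H` with `N / Z` abelian, `T` a complement
of `N` acting freely on `N / Z`, `|N| = (|T| + 1) |Z|`.  Then the function `|T|` on `Z`, `-1` on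
`N \ Z`, `0` off `N` is a character of `H`. -/
theorem psi_char_abstract {H : Type u} [Group H] [Fintype H] (N Z T : Subgroup H) [hN : N.Normal]
    (hZN : Z ≤ N)
    (hZnorm : ∀ x : H, ∀ z ∈ Z, x⁻¹ * z * x ∈ Z)
    (hcomm : ∀ p ∈ N, ∀ q ∈ N, p * q * p⁻¹ * q⁻¹ ∈ Z)
    (hne : ∃ p ∈ N, p ∉ Z)
    (hfree : ∀ τ ∈ T, τ ≠ 1 → ∀ p ∈ N, τ * p * τ⁻¹ * p⁻¹ ∈ Z → p ∈ Z)
    (hTN : ∀ τ ∈ T, τ ∈ N → τ = 1)
    (cH : Nat.card H = Nat.card T * Nat.card N)
    (cN : Nat.card N = (Nat.card T + 1) * Nat.card Z) :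
    Cfsg.IsCharacter H
      (fun b => if b ∈ Z then (Nat.card T : ℂ) else if b ∈ N then -1 else 0) := by
  obtain ⟨μ, hμZ, p₀, hμp⟩ := exists_mu N Z hZnorm hcomm hne
  have hchar := Cfsg.Agent.Lib.Helper75.isCharacter_indFun N
    (Cfsg.Agent.Lib.Helper15.isCharacter_of_hom μ)
  have hcardN : (Nat.card N : ℂ) ≠ 0 := by exact_mod_cast Nat.card_pos.ne'
  have hcardZ : (Nat.card Z : ℂ) ≠ 0 := by exact_mod_cast Nat.card_pos.ne'
  -- orthogonality
  have horth : ∑ q : N, ((μ q : ℂˣ) : ℂ) = 0 := by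
    have h1 : ((μ p₀ : ℂˣ) : ℂ) * ∑ q : N, ((μ q : ℂˣ) : ℂ) = ∑ q : N, ((μ q : ℂˣ) : ℂ) := by
      rw [Finset.mul_sum]
      rw [← Equiv.sum_comp (Equiv.mulLeft p₀) (fun q => ((μ q : ℂˣ) : ℂ))]
      refine Finset.sum_congr rfl (fun q _ => ?_)
      simp
    have h2 : ((μ p₀ : ℂˣ) : ℂ) ≠ 1 := fun h => hμp (Units.ext h)
    have h3 : (((μ p₀ : ℂˣ) : ℂ) - 1) * ∑ q : N, ((μ q : ℂˣ) : ℂ) = 0 := by
      rw [sub_mul, h1, one_mul, sub_self]
    rcases mul_eq_zero.mp h3 with h | h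
    · exact absurd (sub_eq_zero.mp h) h2
    · exact h
  convert hchar using 1
  funext b
  show _ = (Nat.card N : ℂ)⁻¹ * ∑ x : H,
    Cfsg.extendByZero N (fun g : N => ((μ g : ℂˣ) : ℂ)) (x⁻¹ * b * x)
  by_cases hbN : b ∈ N
  swap
  · have hbZ : b ∉ Z := fun h => hbN (hZN h)
    rw [if_neg hbZ, if_neg hbN]
    symm
    rw [Finset.sum_eq_zero, mul_zero]
    intro x _
    apply Cfsg.Agent.Lib.Helper75.extendByZero_not_mem
    intro h
    apply hbN
    have := hN.conj_mem _ h x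
    simpa [mul_assoc] using this
  have hc : ∀ x : H, x⁻¹ * b * x ∈ N := by
    intro x
    have := hN.conj_mem b hbN x⁻¹
    simpa using this
  have hext : ∀ x : H, Cfsg.extendByZero N (fun g : N => ((μ g : ℂˣ) : ℂ)) (x⁻¹ * b * x) =
      ((μ ⟨x⁻¹ * b * x, hc x⟩ : ℂˣ) : ℂ) := by
    intro x
    rw [Cfsg.Agent.Lib.Helper75.extendByZero_mem N _ (hc x)]
  rw [Finset.sum_congr rfl (fun x _ => hext x)]
  by_cases hbZ : b ∈ Z
  · rw [if_pos hbZ]
    have h1 : ∀ x : H, ((μ ⟨x⁻¹ * b * x, hc x⟩ : ℂˣ) : ℂ) = 1 := by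
      intro x
      rw [hμZ _ (hZnorm x b hbZ)]
      rfl
    rw [Finset.sum_congr rfl (fun x _ => h1 x), Finset.sum_const, Finset.card_univ,
      ← Nat.card_eq_fintype_card, cH, nsmul_eq_mul, mul_one]
    push_cast
    field_simp
  rw [if_neg hbZ, if_pos hbN]
  let d : T → N := fun τ => ⟨(τ : H)⁻¹ * b * τ, hc τ⟩
  -- the bijection `T × N → H`
  have he : Function.Bijective (fun x : T × N => (x.1 : H) * (x.2 : H)) := by
    rw [Fintype.bijective_iff_injective_and_card]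
    constructor
    · rintro ⟨τ, q⟩ ⟨τ', q'⟩ h
      have h0 : (τ : H) * q = τ' * q' := h
      have h1 : (τ' : H)⁻¹ * τ = q' * (q : H)⁻¹ := by
        rw [eq_mul_inv_iff_mul_eq, mul_assoc, h0, inv_mul_cancel_left]
      have h2 : (τ' : H)⁻¹ * τ = 1 :=
        hTN _ (T.mul_mem (T.inv_mem τ'.2) τ.2) (h1 ▸ N.mul_mem q'.2 (N.inv_mem q.2))
      have h3 : τ' = τ := Subtype.ext (inv_mul_eq_one.mp h2)
      subst h3
      have h4 : q = q' := Subtype.ext (mul_left_cancel h0)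
      rw [h4]
    · rw [Fintype.card_prod, ← Nat.card_eq_fintype_card, ← Nat.card_eq_fintype_card,
        ← Nat.card_eq_fintype_card, cH]
  have hsumH : ∑ x : H, ((μ ⟨x⁻¹ * b * x, hc x⟩ : ℂˣ) : ℂ) =
      (Nat.card N : ℂ) * ∑ τ : T, ((μ (d τ) : ℂˣ) : ℂ) := by
    rw [← (Equiv.ofBijective _ he).sum_comp, Fintype.sum_prod_type, Finset.mul_sum]
    refine Finset.sum_congr rfl (fun τ _ => ?_)
    have h1 : ∀ q : N, μ ⟨((τ : H) * q)⁻¹ * b * ((τ : H) * q), hc _⟩ = μ (d τ) := by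
      intro q
      have h2 : (⟨((τ : H) * q)⁻¹ * b * ((τ : H) * q), hc _⟩ : N) = q⁻¹ * d τ * q := by
        apply Subtype.ext
        simp [d, mul_assoc]
      rw [h2, map_mul, map_mul, map_inv, mul_comm, ← mul_assoc, mul_inv_cancel, one_mul]
    have h3 : ∀ q : N, ((μ ⟨((Equiv.ofBijective _ he) (τ, q))⁻¹ * b *
        ((Equiv.ofBijective _ he) (τ, q)), hc _⟩ : ℂˣ) : ℂ) = ((μ (d τ) : ℂˣ) : ℂ) := by
      intro q
      exact congrArg Units.val (h1 q)
    rw [Finset.sum_congr rfl (fun q _ => h3 q), Finset.sum_const, Finset.card_univ,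
      ← Nat.card_eq_fintype_card, nsmul_eq_mul]
  -- the bijection `Option T × Z → N`
  let g : Option T × Z → N := fun x =>
    match x with
    | (none, z) => ⟨z, hZN z.2⟩
    | (some τ, z) => d τ * ⟨z, hZN z.2⟩
  have hdZ : ∀ τ : T, ((d τ : N) : H) ∉ Z := by
    intro τ h
    apply hbZ
    have := hZnorm (τ : H)⁻¹ _ h
    simpa [d, mul_assoc] using this
  have hg : Function.Bijective g := by
    rw [Fintype.bijective_iff_injective_and_card]
    constructor
    · rintro ⟨o, z⟩ ⟨o', z'⟩ h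
      rcases o with _ | τ <;> rcases o' with _ | τ'
      · have h1 : (z : H) = z' := congrArg (fun q : N => (q : H)) h
        rw [Subtype.ext h1]
      · exfalso
        have h1 : (z : H) = (τ' : H)⁻¹ * b * τ' * z' := congrArg (fun q : N => (q : H)) h
        apply hdZ τ'
        have h2 : (τ' : H)⁻¹ * b * τ' = z * (z' : H)⁻¹ := by
          rw [h1]; group
        show (τ' : H)⁻¹ * b * τ' ∈ Z
        rw [h2]
        exact Z.mul_mem z.2 (Z.inv_mem z'.2)
      · exfalso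
        have h1 : (τ : H)⁻¹ * b * τ * z = (z' : H) := congrArg (fun q : N => (q : H)) h
        apply hdZ τ
        have h2 : (τ : H)⁻¹ * b * τ = z' * (z : H)⁻¹ := by
          rw [← h1]; group
        show (τ : H)⁻¹ * b * τ ∈ Z
        rw [h2]
        exact Z.mul_mem z'.2 (Z.inv_mem z.2)
      · have h1 : (τ : H)⁻¹ * b * τ * z = (τ' : H)⁻¹ * b * τ' * z' :=
          congrArg (fun q : N => (q : H)) h
        have hσ : (τ : H) * (τ' : H)⁻¹ = 1 := by
          by_contra hσ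
          apply hbZ
          apply hfree _ (T.mul_mem τ.2 (T.inv_mem τ'.2)) hσ b hbN
          -- σ b σ⁻¹ b⁻¹ = b (τ (z z'⁻¹) τ⁻¹) b⁻¹
          have h2 : (τ : H) * (τ' : H)⁻¹ * b * ((τ : H) * (τ' : H)⁻¹)⁻¹ * b⁻¹ =
              b * ((τ : H) * ((z : H) * (z' : H)⁻¹) * (τ : H)⁻¹) * b⁻¹ := by
            have h3 : (τ' : H)⁻¹ * b * τ' = (τ : H)⁻¹ * b * τ * z * (z' : H)⁻¹ := by
              rw [h1]; group
            calc (τ : H) * (τ' : H)⁻¹ * b * ((τ : H) * (τ' : H)⁻¹)⁻¹ * b⁻¹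
                = τ * ((τ' : H)⁻¹ * b * τ') * (τ : H)⁻¹ * b⁻¹ := by group
              _ = τ * ((τ : H)⁻¹ * b * τ * z * (z' : H)⁻¹) * (τ : H)⁻¹ * b⁻¹ := by rw [h3]
              _ = b * ((τ : H) * ((z : H) * (z' : H)⁻¹) * (τ : H)⁻¹) * b⁻¹ := by group
          rw [h2]
          have h4 : (τ : H) * ((z : H) * (z' : H)⁻¹) * (τ : H)⁻¹ ∈ Z := by
            have := hZnorm (τ : H)⁻¹ _ (Z.mul_mem z.2 (Z.inv_mem z'.2))
            simpa using this
          have := hZnorm b⁻¹ _ h4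
          simpa using this
        have h5 : τ = τ' := Subtype.ext (mul_inv_eq_one.mp hσ)
        subst h5
        have h6 : (z : H) = z' := mul_left_cancel h1
        rw [Subtype.ext h6]
    · rw [Fintype.card_prod, Fintype.card_option, ← Nat.card_eq_fintype_card,
        ← Nat.card_eq_fintype_card, ← Nat.card_eq_fintype_card, cN]
  have hsumN : ∑ q : N, ((μ q : ℂˣ) : ℂ) =
      (Nat.card Z : ℂ) + (Nat.card Z : ℂ) * ∑ τ : T, ((μ (d τ) : ℂˣ) : ℂ) := by
    rw [← (Equiv.ofBijective g hg).sum_comp, Fintype.sum_prod_type, Fintype.sum_option]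
    congr 1
    · have h1 : ∀ z : Z, ((μ ((Equiv.ofBijective g hg) (none, z)) : ℂˣ) : ℂ) = 1 := by
        intro z
        have : μ (⟨z, hZN z.2⟩ : N) = 1 := hμZ _ z.2
        exact congrArg Units.val this
      rw [Finset.sum_congr rfl (fun z _ => h1 z), Finset.sum_const, Finset.card_univ,
        ← Nat.card_eq_fintype_card, nsmul_eq_mul, mul_one]
    · rw [Finset.mul_sum]
      refine Finset.sum_congr rfl (fun τ _ => ?_)
      have h1 : ∀ z : Z, ((μ ((Equiv.ofBijective g hg) (some τ, z)) : ℂˣ) : ℂ) =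
          ((μ (d τ) : ℂˣ) : ℂ) := by
        intro z
        have h2 : μ (d τ * ⟨z, hZN z.2⟩) = μ (d τ) := by
          rw [map_mul, hμZ ⟨z, hZN z.2⟩ z.2, mul_one]
        exact congrArg Units.val h2
      rw [Finset.sum_congr rfl (fun z _ => h1 z), Finset.sum_const, Finset.card_univ,
        ← Nat.card_eq_fintype_card, nsmul_eq_mul]
  have hS : ∑ τ : T, ((μ (d τ) : ℂˣ) : ℂ) = -1 := by
    rw [horth] at hsumN
    have h1 : (Nat.card Z : ℂ) * (1 + ∑ τ : T, ((μ (d τ) : ℂˣ) : ℂ)) = 0 := by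
      rw [mul_add, mul_one]
      exact hsumN.symm
    rcases mul_eq_zero.mp h1 with h | h
    · exact absurd h hcardZ
    · exact (eq_neg_of_add_eq_zero_right h)
  rw [hsumH, hS]
  field_simp

open Cfsg.Agent.Lib.Helper14.DG33 in
/-- **[PSICHAR]** `psi8` is a character of `B`. -/
theorem pkgPsiChar : Cfsg.Agent.Lib.Helper14.DG33.PkgPsiChar.{u} := by
  intro G _ _ B P Z t w D
  classical
  haveI : Fintype B := Fintype.ofFinite B
  have R := D.raw
  let tB : B := ⟨t, R.tB⟩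
  haveI hN : (P.subgroupOf B).Normal := by
    constructor
    intro n hn g
    rw [Subgroup.mem_subgroupOf] at hn ⊢
    exact R.Pnorm g g.2 n hn
  have hordt : orderOf tB = 8 := by
    rw [← R.ordt]
    exact Subgroup.orderOf_mk t R.tB
  have hT : Nat.card (Subgroup.zpowers tB) = 8 := by rw [Nat.card_zpowers, hordt]
  have hcP : Nat.card (P.subgroupOf B) = 27 := by
    rw [Nat.card_congr (Subgroup.subgroupOfEquivOfLe R.PB).toEquiv, D.cardP]
  have hcZ : Nat.card (Z.subgroupOf B) = 3 := by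
    rw [Nat.card_congr (Subgroup.subgroupOfEquivOfLe (R.ZP.trans R.PB)).toEquiv, D.cardZ]
  have key := psi_char_abstract (H := B) (P.subgroupOf B) (Z.subgroupOf B) (Subgroup.zpowers tB)
    (by
      intro x hx
      exact R.ZP hx)
    (by
      intro x z hz
      rw [Subgroup.mem_subgroupOf] at hz ⊢
      have := R.Znorm (x⁻¹ : B) (x⁻¹).2 z hz
      simpa using this)
    (by
      intro p hp q hq
      exact R.Pcomm p hp q hq)
    (by
      obtain ⟨p, hp, hpZ⟩ := R.Pne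
      exact ⟨⟨p, R.PB hp⟩, hp, hpZ⟩)
    (by
      intro τ hτ hτ1 p hp hmem
      obtain ⟨k, rfl⟩ := (Submonoid.mem_powers_iff _ _).mp (mem_powers_iff_mem_zpowers.mpr hτ)
      have hk : t ^ (k % 8) = t ^ k := by
        rw [← R.ordt]
        exact pow_mod_orderOf t k
      have hk0 : 0 < k % 8 := by
        rcases Nat.eq_zero_or_pos (k % 8) with h | h
        · exfalso
          apply hτ1
          apply Subtype.ext
          show ((tB ^ k : B) : G) = 1
          rw [Subgroup.coe_pow]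
          show t ^ k = 1
          rw [← hk, h, pow_zero]
        · exact h
      rw [Subgroup.mem_subgroupOf] at hp hmem ⊢
      apply R.tfree (k % 8) hk0 (Nat.mod_lt _ (by norm_num)) _ hp
      rw [hk]
      simpa using hmem)
    (by
      intro τ hτ hτP
      obtain ⟨k, rfl⟩ := (Submonoid.mem_powers_iff _ _).mp (mem_powers_iff_mem_zpowers.mpr hτ)
      rw [Subgroup.mem_subgroupOf] at hτP
      apply Subtype.ext
      have := R.PT k (by simpa using hτP)
      simpa using this)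
    (by rw [D.cardB, hT, hcP])
    (by rw [hcP, hT, hcZ])
  have hfun : psi8 B P Z = fun b : B => if b ∈ Z.subgroupOf B then
      (Nat.card (Subgroup.zpowers tB) : ℂ) else if b ∈ P.subgroupOf B then -1 else 0 := by
    funext b
    unfold psi8
    rw [hT]
    simp only [Subgroup.mem_subgroupOf]
    norm_num
  rw [hfun]
  exact key

end Cfsg.Agent.Lib.Helper4.DG33
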